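import Mathlib

/-! Krull-Remak-Schmidt for finite direct products of finite groups. -/

set_option autoImplicit false

namespace Cfsg.Agent.Lib.KRS

/-- No two nontrivial normal complementary subgroups. -/
def Indec (A : Type*) [Group A] : Prop :=
  Nontrivial A ∧ ∀ H K : Subgroup A, H.Normal → K.Normal → H ⊓ K = ⊥ → H ⊔ K = ⊤ → H = ⊥ ∨ K = ⊥

/-- An endomorphism commuting with all inner automorphisms. -/
def IsNormalEndo {A : Type*} [Group A] (f : A →* A) : Prop :=
  ∀ c a : A, f (c * a * c⁻¹) = c * f a * c⁻¹

/-- Fitting lemma. -/
theorem fitting {A : Type*} [Group A] [Finite A] (hA : Indec A) (f : A →* A) (hf : IsNormalEndo f) :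
    Function.Bijective f ∨ ∃ k : ℕ, ∀ a, f^[k] a = 1 := by
  classical
  haveI := Fintype.ofFinite A
  have hnot : ¬ Function.Injective (fun k : ℕ => (f^[k] : A → A)) := not_injective_infinite_finite _
  rw [Function.not_injective_iff] at hnot
  obtain ⟨a, b, hab, hne⟩ := hnot
  wlog hlt : a < b generalizing a b
  · exact this b a hab.symm hne.symm (by omega)
  have hp : ∀ j : ℕ, ∀ t, a ≤ t → (f^[t + j * (b - a)] : A → A) = f^[t] := by
    intro j
    induction j with
    | zero => simp
    | succ j ih =>
      intro t ht
      have h1 : (f^[t + (b - a)] : A → A) = f^[t] := by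
        rw [show t + (b - a) = (t - a) + b by omega, Function.iterate_add, ← hab,
          ← Function.iterate_add, show t - a + a = t by omega]
      have := ih (t + (b - a)) (by omega)
      rw [show t + (j + 1) * (b - a) = t + (b - a) + j * (b - a) by ring, this, h1]
  set k := (a + 1) * (b - a) with hk
  have hkpos : 0 < k := Nat.mul_pos (by omega) (by omega)
  have hka : a ≤ k := le_trans (Nat.le_succ a) (Nat.le_mul_of_pos_right _ (by omega))
  have hidem : ∀ x, f^[k] (f^[k] x) = f^[k] x := by
    intro x
    rw [← Function.iterate_add_apply]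
    exact congrFun (hp (a + 1) k hka) x
  have hnorm : ∀ (i : ℕ) (c x : A), f^[i] (c * x * c⁻¹) = c * f^[i] x * c⁻¹ := by
    intro i
    induction i with
    | zero => intro c x; rfl
    | succ i ih => intro c x; rw [Function.iterate_succ_apply', ih, hf, Function.iterate_succ_apply']
  let e : A →* A :=
    { toFun := f^[k]
      map_one' := by
        induction k with
        | zero => rfl
        | succ i ih => rw [Function.iterate_succ_apply', ih, map_one]
      map_mul' := fun x y => iterate_map_mul f k x y }
  have hK : e.ker.Normal := inferInstance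
  have hR : e.range.Normal := by
    constructor
    rintro _ ⟨x, rfl⟩ c
    exact ⟨c * x * c⁻¹, hnorm k c x⟩
  have hbot : e.ker ⊓ e.range = ⊥ := by
    rw [eq_bot_iff]
    rintro _ ⟨h1, x, rfl⟩
    replace h1 : e (e x) = 1 := h1
    rw [Subgroup.mem_bot, ← h1]
    exact (hidem x).symm
  have htop : e.ker ⊔ e.range = ⊤ := by
    rw [eq_top_iff]
    intro x _
    rw [show x = (x * (e x)⁻¹) * e x by group]
    refine Subgroup.mul_mem_sup ?_ ⟨x, rfl⟩
    rw [MonoidHom.mem_ker, map_mul, map_inv]
    change e x * (f^[k] (f^[k] x))⁻¹ = 1
    rw [hidem]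
    exact mul_inv_cancel (e x)
  rcases hA.2 _ _ hK hR hbot htop with h | h
  · left
    have hinj : Function.Injective e := (MonoidHom.ker_eq_bot_iff e).mp h
    have : Function.Injective f := by
      intro x y hxy
      apply hinj
      change f^[k] x = f^[k] y
      obtain ⟨k', hk'⟩ := Nat.exists_eq_succ_of_ne_zero hkpos.ne'
      rw [hk', Function.iterate_succ_apply, Function.iterate_succ_apply, hxy]
    exact ⟨this, Finite.injective_iff_surjective.mp this⟩
  · right
    refine ⟨k, fun x => ?_⟩
    have : e x ∈ e.range := ⟨x, rfl⟩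
    rwa [h, Subgroup.mem_bot] at this

/-- If two normal endomorphisms multiply to the identity, one is bijective. -/
theorem one_bijective {A : Type*} [Group A] [Finite A] (hA : Indec A) (f g : A →* A)
    (hf : IsNormalEndo f) (hg : IsNormalEndo g) (h : ∀ a, f a * g a = a) :
    Function.Bijective f ∨ Function.Bijective g := by
  classical
  rcases fitting hA f hf with h1 | ⟨k, hk⟩
  · exact Or.inl h1
  · right
    rcases fitting hA g hg with h2 | ⟨l, hl⟩
    · exact h2
    · exfalso
      have hex : ∃ x : A, x ≠ 1 ∧ f x = 1 := by
        by_contra hc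
        push Not at hc
        have hinj : Function.Injective f := by
          rw [injective_iff_map_eq_one]
          intro x hx
          by_contra hx1
          exact hc x hx1 hx
        obtain ⟨x, hx⟩ := @exists_ne A hA.1 1
        exact hx (hinj.iterate k (by rw [hk, hk]))
      obtain ⟨x, hx1, hfx⟩ := hex
      have hgx : g x = x := by have := h x; rwa [hfx, one_mul] at this
      have := hl x
      rw [Function.iterate_fixed hgx l] at this
      exact hx1 this

section
variable {ι : Type*} [DecidableEq ι] {B : ι → Type*} [∀ i, Group (B i)]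

/-- Restriction of a tuple to a finset of coordinates. -/
def restr (S : Finset ι) : (∀ i, B i) →* (∀ i, B i) where
  toFun z := fun i => if i ∈ S then z i else 1
  map_one' := by funext i; by_cases hi : i ∈ S <;> simp [hi]
  map_mul' z w := by funext i; by_cases hi : i ∈ S <;> simp [hi]

theorem restr_conj (S : Finset ι) (z w : ∀ i, B i) : restr S (z * w * z⁻¹) = z * restr S w * z⁻¹ := by
  funext i
  by_cases hi : i ∈ S <;> simp [restr, hi]

theorem single_conj (i : ι) (z : ∀ i, B i) (a : B i) :
    MonoidHom.mulSingle B i (z i * a * (z i)⁻¹) = z * MonoidHom.mulSingle B i a * z⁻¹ := by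
  funext k
  by_cases hk : k = i
  · subst hk; simp
  · simp [Pi.mulSingle_eq_of_ne hk]

end

/-- Exchange step: the first factor is isomorphic to some factor of the second decomposition. -/
theorem exchange {m n : ℕ} {A : Fin (m + 1) → Type*} {B : Fin (n + 1) → Type*}
    [∀ i, Group (A i)] [∀ j, Group (B j)] [Finite (A 0)]
    (hA : Indec (A 0)) (hB : ∀ j, Indec (B j))
    (e : ((i : Fin (m + 1)) → A i) ≃* ((j : Fin (n + 1)) → B j)) :
    ∃ j, Nonempty (A 0 ≃* B j) ∧
      Nonempty (((i : Fin m) → A i.succ) ≃* ((k : Fin n) → B (j.succAbove k))) := by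
  classical
  let s0 := MonoidHom.mulSingle A 0
  let F : Finset (Fin (n + 1)) → (A 0 →* A 0) := fun S =>
    (Pi.evalMonoidHom A 0).comp (e.symm.toMonoidHom.comp ((restr S).comp (e.toMonoidHom.comp s0)))
  have hFapp : ∀ S a, F S a = e.symm (restr S (e (Pi.mulSingle 0 a))) 0 := fun S a => rfl
  have hFn : ∀ S, IsNormalEndo (F S) := by
    intro S c a
    rw [hFapp, hFapp]
    have h1 : (Pi.mulSingle 0 (c * a * c⁻¹) : ∀ i, A i) =
        Pi.mulSingle 0 c * Pi.mulSingle 0 a * (Pi.mulSingle 0 c)⁻¹ := by
      have := single_conj (B := A) 0 (Pi.mulSingle 0 c) a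
      simpa using this
    rw [h1, map_mul e, map_mul e, map_inv e, restr_conj, map_mul e.symm, map_mul e.symm, map_inv e.symm]
    simp
  have hsplit : ∀ S j, j ∉ S → ∀ a, F (insert j S) a = F S a * F {j} a := by
    intro S j hj a
    rw [hFapp, hFapp, hFapp, ← Pi.mul_apply, ← map_mul]
    refine congrFun (congrArg e.symm ?_) 0
    funext i
    by_cases hij : i = j
    · subst hij; simp [restr, hj]
    · by_cases hi : i ∈ S <;> simp [restr, hij, hi]
  have hex : ∀ S, Function.Bijective (F S) → ∃ j, Function.Bijective (F {j}) := by
    intro S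
    induction S using Finset.induction_on with
    | empty =>
      intro h
      exfalso
      obtain ⟨x, hx⟩ := @exists_ne (A 0) hA.1 1
      refine hx (h.1 ?_)
      have hz : ∀ a, F ∅ a = 1 := by
        intro a
        rw [hFapp, show restr ∅ (e (Pi.mulSingle 0 a)) = 1 by funext i; simp [restr], map_one]
        rfl
      rw [hz, hz]
    | @insert j S hj ih =>
      intro h
      let q := MulEquiv.ofBijective (F (insert j S)) h
      have hqn : ∀ c a : A 0, q.symm (c * a * c⁻¹) = c * q.symm a * c⁻¹ := by
        intro c a
        rw [MulEquiv.symm_apply_eq]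
        change c * a * c⁻¹ = F (insert j S) (c * q.symm a * c⁻¹)
        rw [hFn]
        congr 2
        exact (q.apply_symm_apply a).symm
      have hn : ∀ T, IsNormalEndo (q.symm.toMonoidHom.comp (F T)) := by
        intro T c a
        simp only [MonoidHom.comp_apply, MulEquiv.coe_toMonoidHom]
        rw [hFn T c a, hqn]
      rcases one_bijective hA _ _ (hn S) (hn {j}) (fun a => by
        simp only [MonoidHom.comp_apply, MulEquiv.coe_toMonoidHom]
        rw [← map_mul, ← hsplit S j hj a, MulEquiv.symm_apply_eq]
        rfl) with h1 | h1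
      · refine ih ?_
        have := q.bijective.comp h1
        convert this using 1
        funext a
        simp
      · refine ⟨j, ?_⟩
        have := q.bijective.comp h1
        convert this using 1
        funext a
        simp
  have huniv : F Finset.univ = MonoidHom.id _ := by
    ext a
    rw [hFapp, show restr Finset.univ (e (Pi.mulSingle 0 a)) = e (Pi.mulSingle 0 a) by funext i; simp [restr]]
    simp
  obtain ⟨j, hj⟩ := hex Finset.univ (by rw [huniv]; exact Function.bijective_id)
  refine ⟨j, ?_⟩
  let u : A 0 →* B j := (Pi.evalMonoidHom B j).comp (e.toMonoidHom.comp s0)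
  let v : B j →* A 0 := (Pi.evalMonoidHom A 0).comp (e.symm.toMonoidHom.comp (MonoidHom.mulSingle B j))
  have huapp : ∀ a, u a = e (Pi.mulSingle 0 a) j := fun a => rfl
  have hvapp : ∀ b, v b = e.symm (Pi.mulSingle j b) 0 := fun b => rfl
  have hvu : ∀ a, v (u a) = F {j} a := by
    intro a
    rw [hvapp, huapp, hFapp]
    refine congrFun (congrArg e.symm ?_) 0
    funext i
    by_cases hij : i = j
    · subst hij; simp [restr]
    · simp [restr, hij]
  have hvubij : Function.Bijective (fun a => v (u a)) := by
    convert hj using 1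
    funext a
    exact hvu a
  have huN : u.range.Normal := by
    constructor
    rintro _ ⟨a, rfl⟩ b
    refine ⟨v b * a * (v b)⁻¹, ?_⟩
    rw [huapp, huapp, hvapp]
    have h1 := single_conj (B := A) 0 (e.symm (Pi.mulSingle j b)) a
    simp only [MonoidHom.mulSingle_apply] at h1
    rw [h1, map_mul, map_mul, map_inv, MulEquiv.apply_symm_apply]
    simp
  have hbot : v.ker ⊓ u.range = ⊥ := by
    rw [eq_bot_iff]
    rintro _ ⟨h1, a, rfl⟩
    replace h1 : v (u a) = 1 := h1
    have : a = 1 := hvubij.1 (by simp [h1])
    simp [this]
  have htop : v.ker ⊔ u.range = ⊤ := by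
    rw [eq_top_iff]
    intro b _
    obtain ⟨a, ha⟩ := hvubij.2 (v b)
    rw [show b = (b * (u a)⁻¹) * u a by group]
    refine Subgroup.mul_mem_sup ?_ ⟨a, rfl⟩
    simp only at ha
    rw [MonoidHom.mem_ker, map_mul, map_inv, ha, mul_inv_cancel]
  have hker : v.ker = ⊥ := by
    rcases (hB j).2 _ _ inferInstance huN hbot htop with h | h
    · exact h
    · exfalso
      obtain ⟨x, hx⟩ := @exists_ne (A 0) hA.1 1
      have hu : u x = 1 := by
        have : u x ∈ u.range := ⟨x, rfl⟩
        rwa [h, Subgroup.mem_bot] at this
      exact hx (hvubij.1 (by simp [hu]))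
  have hvinj : Function.Injective v := (MonoidHom.ker_eq_bot_iff v).mp hker
  have hubij : Function.Bijective u := by
    refine ⟨fun a a' h => hvubij.1 (by simp [h]), fun b => ?_⟩
    obtain ⟨a, ha⟩ := hvubij.2 (v b)
    exact ⟨a, hvinj ha⟩
  refine ⟨⟨MulEquiv.ofBijective u hubij⟩, ?_⟩
  let ins : ((k : Fin n) → B (j.succAbove k)) →* (∀ i, B i) :=
    { toFun := fun w => Fin.insertNth j 1 w
      map_one' := by
        funext i
        induction i using Fin.succAboveCases j with
        | x => simp
        | p k => simp
      map_mul' := fun w w' => by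
        funext i
        induction i using Fin.succAboveCases j with
        | x => simp
        | p k => simp }
  let ψ : ((k : Fin n) → B (j.succAbove k)) →* ((i : Fin m) → A i.succ) :=
    MonoidHom.comp
      { toFun := fun z i => z i.succ
        map_one' := rfl
        map_mul' := fun _ _ => rfl } (e.symm.toMonoidHom.comp ins)
  have hψ : Function.Bijective ψ := by
    constructor
    · rw [injective_iff_map_eq_one]
      intro w hw
      set z := e.symm (ins w) with hz
      have hz1 : z = Pi.mulSingle 0 (z 0) := by
        funext i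
        induction i using Fin.cases with
        | zero => simp
        | succ i =>
          rw [Pi.mulSingle_eq_of_ne (Fin.succ_ne_zero i)]
          exact congrFun hw i
      have hu0 : u (z 0) = 1 := by
        rw [huapp, ← hz1, hz, MulEquiv.apply_symm_apply]
        simp [ins]
      have hz0 : z 0 = 1 := hubij.1 (by rw [hu0, map_one])
      rw [hz0, Pi.mulSingle_one, hz, MulEquiv.map_eq_one_iff] at hz1
      funext k
      have := congrFun hz1 (j.succAbove k)
      simpa [ins] using this
    · intro x
      let z0 : ∀ i, A i := Fin.cons 1 x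
      obtain ⟨a, ha⟩ := hubij.2 ((e z0 j)⁻¹)
      let z : ∀ i, A i := Pi.mulSingle 0 a * z0
      refine ⟨fun k => e z (j.succAbove k), ?_⟩
      have hins : ins (fun k => e z (j.succAbove k)) = e z := by
        funext i
        induction i using Fin.succAboveCases j with
        | x =>
          simp only [ins, MonoidHom.coe_mk, OneHom.coe_mk, Fin.insertNth_apply_same]
          rw [map_mul, Pi.mul_apply, ← huapp, ha, inv_mul_cancel]
        | p k => simp [ins]
      funext i
      change e.symm (ins (fun k => e z (j.succAbove k))) i.succ = x i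
      rw [hins, MulEquiv.symm_apply_apply]
      simp [z, z0, Pi.mulSingle_eq_of_ne (Fin.succ_ne_zero i)]
  exact ⟨(MulEquiv.ofBijective ψ hψ).symm⟩

end Cfsg.Agent.Lib.KRS
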